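import Cfsg.Agent.Lib.ToddCox.M11O.Low
import Cfsg.Agent.Lib.ToddCox.Base
set_option autoImplicit false
set_option maxRecDepth 100000
namespace Cfsg.Agent.Lib.ToddCox.M11O

def baseL : List ℕ := [0, 1, 3]

theorem word_one_of {ρ : PresentedGroup Cfsg.Agent.Lib.ToddCox.M11T.rels →* Equiv.Perm (Fin 66)}
    (hρ : ∀ r (i : Fin 66), ((ρ (PresentedGroup.mk Cfsg.Agent.Lib.ToddCox.M11T.rels r) i : Fin 66) : ℕ) = tabW Cfsg.Agent.Lib.ToddCox.M11T.tab (relW Cfsg.Agent.Lib.ToddCox.M11T.sg r) i)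
    (hinj : Function.Injective ρ) (hcard : Nat.card (PresentedGroup Cfsg.Agent.Lib.ToddCox.M11T.rels) = 7920)
    {w : List ℕ} (hw : ∀ a ∈ w, a < 5) (hb : ∀ b ∈ baseL, tabW Cfsg.Agent.Lib.ToddCox.M11T.tab w b = b) : wordVal gen w = 1 := by
  have hel : ∀ w ∈ L, ∀ i : Fin 66, (((fun w => ρ (wordVal gen w)) w i : Fin 66) : ℕ) = tabW Cfsg.Agent.Lib.ToddCox.M11T.tab w i :=
    fun w hw i => rep_word hρ hLT (hLm w hw) i
  have s0 : sgsG (fun w => ρ (wordVal gen w)) L 0 ≤ ρ.range := by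
    unfold sgsG
    rw [Subgroup.closure_le]
    rintro _ ⟨w, _, rfl⟩
    exact ⟨_, rfl⟩
  have cK0 : Nat.card ρ.range = 7920 := by
    rw [← hcard]
    exact Nat.card_congr (MonoidHom.ofInjective hinj).symm.toEquiv
  have hb0 : 0 < 66 := by norm_num
  have c0 : ∀ k, k < 66 → chkOrbPos Cfsg.Agent.Lib.ToddCox.M11T.tab L 0 0 66 66 (fun q => orbR (Nat.add 0 q)) k = true :=
    defs_of_bits 66 11 1 (by norm_num) (by
      intro j hj
      interval_cases j
      · exact lv0_0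
      )
  have hb1 : 1 < 66 := by norm_num
  have c1 : ∀ k, k < 30 → chkOrbPos Cfsg.Agent.Lib.ToddCox.M11T.tab L 5 1 30 66 (fun q => orbR (Nat.add 66 q)) k = true :=
    defs_of_bits 30 11 1 (by norm_num) (by
      intro j hj
      interval_cases j
      · exact lv1_0
      )
  have hb2 : 3 < 66 := by norm_num
  have c2 : ∀ k, k < 4 → chkOrbPos Cfsg.Agent.Lib.ToddCox.M11T.tab L 9 3 4 66 (fun q => orbR (Nat.add 96 q)) k = true :=
    defs_of_bits 4 11 1 (by norm_num) (by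
      intro j hj
      interval_cases j
      · exact lv2_0
      )
  have l0 := level_bound_K hb0 hel c0 s0
  have s1 := sgs_le_fixP hb0 (by norm_num : 0 ≤ 5) hel fx0 s0
  have l1 := level_bound_K hb1 hel c1 s1
  have s2 := sgs_le_fixP hb1 (by norm_num : 5 ≤ 9) hel fx1 s1
  have l2 := level_bound_K hb2 hel c2 s2
  have s3 := sgs_le_fixP hb2 (by norm_num : 9 ≤ 11) hel fx2 s2
  rw [cK0] at l0
  have p0 := l0
  have p1 := chain_mul p0 l1
  have p2 := chain_mul p1 l2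
  have hM : 7920 * _ ≤ 7920 := (by norm_num : 66*30*4 = 7920) ▸ p2
  have m0 : ρ (wordVal gen w) ∈ ρ.range := ⟨_, rfl⟩
  have m1 := (mem_fixP (x := ⟨0, hb0⟩)).mpr ⟨m0, Fin.ext (by rw [rep_word hρ hLT hw]; exact hb 0 (by decide +kernel))⟩
  have m2 := (mem_fixP (x := ⟨1, hb1⟩)).mpr ⟨m1, Fin.ext (by rw [rep_word hρ hLT hw]; exact hb 1 (by decide +kernel))⟩
  have m3 := (mem_fixP (x := ⟨3, hb2⟩)).mpr ⟨m2, Fin.ext (by rw [rep_word hρ hLT hw]; exact hb 3 (by decide +kernel))⟩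
  have h1 := eq_one_of_card_le (by norm_num) hM m3
  exact hinj (by rw [h1, map_one])

end Cfsg.Agent.Lib.ToddCox.M11O
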