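import Cfsg.Agent.Lib.ToddCox.M11O.OrbD
set_option autoImplicit false
set_option maxRecDepth 100000
namespace Cfsg.Agent.Lib.ToddCox.M11O
open Cfsg.Agent.Lib.ToddCox.M11T in
theorem lv0_0 : allBits (fun k => bif Nat.blt k 66 then chkOrbPos Cfsg.Agent.Lib.ToddCox.M11T.tab L 0 0 66 66 (fun q => orbR (Nat.add 0 q)) k else true) 11 0 = true := by decide +kernel
theorem fx0 : ∀ w ∈ L.drop 5, tabW Cfsg.Agent.Lib.ToddCox.M11T.tab w 0 = 0 := by decide +kernel
theorem lv1_0 : allBits (fun k => bif Nat.blt k 30 then chkOrbPos Cfsg.Agent.Lib.ToddCox.M11T.tab L 5 1 30 66 (fun q => orbR (Nat.add 66 q)) k else true) 11 0 = true := by decide +kernel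
theorem fx1 : ∀ w ∈ L.drop 9, tabW Cfsg.Agent.Lib.ToddCox.M11T.tab w 1 = 1 := by decide +kernel
theorem lv2_0 : allBits (fun k => bif Nat.blt k 4 then chkOrbPos Cfsg.Agent.Lib.ToddCox.M11T.tab L 9 3 4 66 (fun q => orbR (Nat.add 96 q)) k else true) 11 0 = true := by decide +kernel
theorem fx2 : ∀ w ∈ L.drop 11, tabW Cfsg.Agent.Lib.ToddCox.M11T.tab w 3 = 3 := by decide +kernel
end Cfsg.Agent.Lib.ToddCox.M11O
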