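import Cfsg.Agent.Lib.ToddCox.M11C0.Step
import Cfsg.Agent.Lib.ToddCox.M11C1.Step
import Cfsg.Agent.Lib.ToddCox.M11C2.Step
import Cfsg.Agent.Lib.ToddCox.M11C3.Step
import Cfsg.Agent.Lib.ToddCox.M11O.Low
import Cfsg.Agent.Lib.ToddCox.M11X.Cert
import Cfsg.Agent.Lib.ToddCox.M11O.PrimC
set_option autoImplicit false
set_option maxRecDepth 100000
namespace Cfsg.Agent.Lib.ToddCox.M11O

theorem hTop : ∀ x, Cfsg.Agent.Lib.ToddCox.M11T.sg x true ∈ Cfsg.Agent.Lib.ToddCox.M11C0.Js := by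
  intro x
  cases x <;> decide +kernel
theorem hTopLT : ∀ x, Cfsg.Agent.Lib.ToddCox.M11T.LT.getD (Cfsg.Agent.Lib.ToddCox.M11T.sg x true) 1 = FreeGroup.of x := by
  intro x
  cases x <;> decide +kernel
theorem card_bd : 0 < Nat.card (PresentedGroup Cfsg.Agent.Lib.ToddCox.M11T.rels) ∧ Nat.card (PresentedGroup Cfsg.Agent.Lib.ToddCox.M11T.rels) ≤ 7920 := by
  have h3 : 0 < Nat.card (letSub gen Cfsg.Agent.Lib.ToddCox.M11C3.Js) ∧ Nat.card (letSub gen Cfsg.Agent.Lib.ToddCox.M11C3.Js) ≤ 8 * 1 :=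
    card_le_of_chain Cfsg.Agent.Lib.ToddCox.M11C3.le Cfsg.Agent.Lib.ToddCox.M11C3.step card_letSub_nil
  have h2 : 0 < Nat.card (letSub gen Cfsg.Agent.Lib.ToddCox.M11C2.Js) ∧ Nat.card (letSub gen Cfsg.Agent.Lib.ToddCox.M11C2.Js) ≤ 3 * (8 * 1) :=
    card_le_of_chain Cfsg.Agent.Lib.ToddCox.M11C2.le Cfsg.Agent.Lib.ToddCox.M11C2.step h3
  have h1 : 0 < Nat.card (letSub gen Cfsg.Agent.Lib.ToddCox.M11C1.Js) ∧ Nat.card (letSub gen Cfsg.Agent.Lib.ToddCox.M11C1.Js) ≤ 5 * (3 * (8 * 1)) :=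
    card_le_of_chain Cfsg.Agent.Lib.ToddCox.M11C1.le Cfsg.Agent.Lib.ToddCox.M11C1.step h2
  have h0 : 0 < Nat.card (letSub gen Cfsg.Agent.Lib.ToddCox.M11C0.Js) ∧ Nat.card (letSub gen Cfsg.Agent.Lib.ToddCox.M11C0.Js) ≤ 66 * (5 * (3 * (8 * 1))) :=
    card_le_of_chain Cfsg.Agent.Lib.ToddCox.M11C0.le Cfsg.Agent.Lib.ToddCox.M11C0.step h1
  rw [show letSub gen Cfsg.Agent.Lib.ToddCox.M11C0.Js = ⊤ from letSub_top hTop hTopLT, Subgroup.card_top] at h0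
  norm_num at h0
  exact h0

abbrev x : PresentedGroup Cfsg.Agent.Lib.ToddCox.M11T.rels := wordVal gen Cfsg.Agent.Lib.ToddCox.M11X.xw

theorem xR : ∀ w ∈ Cfsg.Agent.Lib.ToddCox.M11X.Rb, w = Cfsg.Agent.Lib.ToddCox.M11X.xw ∨ w ∈ Cfsg.Agent.Lib.ToddCox.M11T.RL.map (relW Cfsg.Agent.Lib.ToddCox.M11T.sg) ∨ freeVal Cfsg.Agent.Lib.ToddCox.M11T.LT w = 1 := by decide +kernel
theorem xHl : Cfsg.Agent.Lib.ToddCox.M11X.Hl = [] := rfl
theorem hcl : Subgroup.normalClosure {x} = ⊤ :=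
  normalClosure_top_of_cert gen x Cfsg.Agent.Lib.ToddCox.M11X.inv Cfsg.Agent.Lib.ToddCox.M11T.letters.genInv Cfsg.Agent.Lib.ToddCox.M11X.Eo Cfsg.Agent.Lib.ToddCox.M11X.W Cfsg.Agent.Lib.ToddCox.M11X.isH (fun y hy => invOf_lt _ hy) Cfsg.Agent.Lib.ToddCox.M11X.Eo_lt
    (genP_id (by decide +kernel)) Cfsg.Agent.Lib.ToddCox.M11X.Rb (by
      intro w hw
      rcases xR w hw with h | h
      · rw [h]
        exact Subgroup.subset_normalClosure rfl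
      · rw [Cfsg.Agent.Lib.ToddCox.M11T.letters.word h]
        exact Subgroup.one_mem _)
    Cfsg.Agent.Lib.ToddCox.M11X.nW Cfsg.Agent.Lib.ToddCox.M11X.W_ge Cfsg.Agent.Lib.ToddCox.M11X.sp Cfsg.Agent.Lib.ToddCox.M11X.words (fun y => rfl) Cfsg.Agent.Lib.ToddCox.M11X.defs Cfsg.Agent.Lib.ToddCox.M11X.covered Cfsg.Agent.Lib.ToddCox.M11X.cF Cfsg.Agent.Lib.ToddCox.M11X.cF_zero Cfsg.Agent.Lib.ToddCox.M11X.cF_lt Cfsg.Agent.Lib.ToddCox.M11X.ys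
    (letSub_top (by intro x; cases x <;> decide +kernel) hTopLT) Cfsg.Agent.Lib.ToddCox.M11X.links

def xpow : List ℕ := [nat_lit 2, nat_lit 4, nat_lit 4, nat_lit 2, nat_lit 1, nat_lit 2, nat_lit 2, nat_lit 4, nat_lit 0, nat_lit 2, nat_lit 2, nat_lit 4, nat_lit 4, nat_lit 2, nat_lit 1, nat_lit 2, nat_lit 2, nat_lit 4, nat_lit 0, nat_lit 2, nat_lit 2, nat_lit 4, nat_lit 4, nat_lit 2, nat_lit 1, nat_lit 2, nat_lit 2, nat_lit 4, nat_lit 0, nat_lit 2, nat_lit 2, nat_lit 4, nat_lit 4, nat_lit 2, nat_lit 1, nat_lit 2, nat_lit 2, nat_lit 4, nat_lit 0, nat_lit 2, nat_lit 2, nat_lit 4, nat_lit 4, nat_lit 2, nat_lit 1, nat_lit 2, nat_lit 2, nat_lit 4, nat_lit 0, nat_lit 2, nat_lit 2, nat_lit 4, nat_lit 4, nat_lit 2, nat_lit 1, nat_lit 2, nat_lit 2, nat_lit 4, nat_lit 0, nat_lit 2, nat_lit 2, nat_lit 4, nat_lit 4, nat_lit 2, nat_lit 1, nat_lit 2, nat_lit 2, nat_lit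 4, nat_lit 0, nat_lit 2, nat_lit 2, nat_lit 4, nat_lit 4, nat_lit 2, nat_lit 1, nat_lit 2, nat_lit 2, nat_lit 4, nat_lit 0, nat_lit 2, nat_lit 2, nat_lit 4, nat_lit 4, nat_lit 2, nat_lit 1, nat_lit 2, nat_lit 2, nat_lit 4, nat_lit 0, nat_lit 2, nat_lit 2, nat_lit 4, nat_lit 4, nat_lit 2, nat_lit 1, nat_lit 2, nat_lit 2, nat_lit 4, nat_lit 0, nat_lit 2, nat_lit 2, nat_lit 4, nat_lit 4, nat_lit 2, nat_lit 1, nat_lit 2, nat_lit 2, nat_lit 4, nat_lit 0, nat_lit 2]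
theorem xpow_eq : xpow = powW Cfsg.Agent.Lib.ToddCox.M11X.xw 11 := by decide +kernel
theorem xpowL : ∀ a ∈ xpow, a < 5 := by decide +kernel
theorem xpowB : ∀ b ∈ baseL, tabW Cfsg.Agent.Lib.ToddCox.M11T.tab xpow b = b := by decide +kernel

theorem rep_facts : ∃ ρ : PresentedGroup Cfsg.Agent.Lib.ToddCox.M11T.rels →* Equiv.Perm (Fin 66),
    (∀ r (i : Fin 66), ((ρ (PresentedGroup.mk Cfsg.Agent.Lib.ToddCox.M11T.rels r) i : Fin 66) : ℕ) = tabW Cfsg.Agent.Lib.ToddCox.M11T.tab (relW Cfsg.Agent.Lib.ToddCox.M11T.sg r) i) ∧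
      Function.Injective ρ ∧ Nat.card (PresentedGroup Cfsg.Agent.Lib.ToddCox.M11T.rels) = 7920 := by
  obtain ⟨ρ, hρ⟩ := Cfsg.Agent.Lib.ToddCox.M11T.rep_exists
  have hc := card_bd
  obtain ⟨hcard, hinj⟩ := card_and_faithful hc.1 hc.2 (low hρ) (fun w _ => ⟨_, rfl⟩)
  exact ⟨ρ, hρ, hinj, hcard⟩

theorem word_one {w : List ℕ} (hw : ∀ a ∈ w, a < 5) (hb : ∀ b ∈ baseL, tabW Cfsg.Agent.Lib.ToddCox.M11T.tab w b = b) : wordVal gen w = 1 := by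
  obtain ⟨ρ, hρ, hinj, hcard⟩ := rep_facts
  exact word_one_of hρ hinj hcard hw hb

theorem word_ne_one {w : List ℕ} (hw : ∀ a ∈ w, a < 5) {k : ℕ} (hk : k < 66) (h : tabW Cfsg.Agent.Lib.ToddCox.M11T.tab w k ≠ k) :
    wordVal gen w ≠ 1 := by
  obtain ⟨ρ, hρ, _, _⟩ := rep_facts
  intro h1
  have h2 := rep_word hρ hLT hw ⟨k, hk⟩
  rw [h1, map_one] at h2
  exact h h2.symm

theorem mk_one {r : FreeGroup Cfsg.Agent.Lib.ToddCox.OPM11.Gen} (hw : ∀ a ∈ relW Cfsg.Agent.Lib.ToddCox.M11T.sg r, a < 5) (hb : ∀ b ∈ baseL, tabW Cfsg.Agent.Lib.ToddCox.M11T.tab (relW Cfsg.Agent.Lib.ToddCox.M11T.sg r) b = b) :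
    PresentedGroup.mk Cfsg.Agent.Lib.ToddCox.M11T.rels r = 1 := by
  rw [mk_eq_word_gen Cfsg.Agent.Lib.ToddCox.M11T.letters]
  exact word_one hw hb

theorem mk_ne_one {r : FreeGroup Cfsg.Agent.Lib.ToddCox.OPM11.Gen} (hw : ∀ a ∈ relW Cfsg.Agent.Lib.ToddCox.M11T.sg r, a < 5) {k : ℕ} (hk : k < 66)
    (h : tabW Cfsg.Agent.Lib.ToddCox.M11T.tab (relW Cfsg.Agent.Lib.ToddCox.M11T.sg r) k ≠ k) : PresentedGroup.mk Cfsg.Agent.Lib.ToddCox.M11T.rels r ≠ 1 := by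
  rw [mk_eq_word_gen Cfsg.Agent.Lib.ToddCox.M11T.letters]
  exact word_ne_one hw hk h

theorem main : IsSimpleGroup (PresentedGroup Cfsg.Agent.Lib.ToddCox.M11T.rels) ∧ Nat.card (PresentedGroup Cfsg.Agent.Lib.ToddCox.M11T.rels) = 7920 := by
  obtain ⟨ρ, hρ, hinj, hcard⟩ := rep_facts
  have hfin : Finite (PresentedGroup Cfsg.Agent.Lib.ToddCox.M11T.rels) := Nat.finite_of_card_ne_zero (by rw [hcard]; norm_num)
  have hnt : Nontrivial (PresentedGroup Cfsg.Agent.Lib.ToddCox.M11T.rels) := by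
    rw [← Finite.one_lt_card_iff_nontrivial, hcard]
    norm_num
  have hn : 0 < 66 := by norm_num
  have hfix : ∀ h ∈ subG Cfsg.Agent.Lib.ToddCox.M11T.rels Cfsg.Agent.Lib.ToddCox.M11T.Sl, ρ h ⟨0, hn⟩ = ⟨0, hn⟩ := subG_fix hρ Cfsg.Agent.Lib.ToddCox.M11T.fix0
  have htrans := rep_trans hρ hn Cfsg.Agent.Lib.ToddCox.M11T.reach
  have hidx := Cfsg.Agent.Lib.ToddCox.M11T.index_eq
  have hstab : ∀ g, ρ g ⟨0, hn⟩ = ⟨0, hn⟩ → g ∈ subG Cfsg.Agent.Lib.ToddCox.M11T.rels Cfsg.Agent.Lib.ToddCox.M11T.Sl := fun g hg => mem_of_fix ρ hn hfix htrans hidx hg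
  obtain ⟨_, hb0⟩ := block_facts (d := 7) Cfsg.Agent.Lib.ToddCox.M11T.t6 (by norm_num) Cfsg.Agent.Lib.ToddCox.M11T.bk1
  have hc0 := conn_rep ρ (lo := 1) (s := 30) (by norm_num) (conn_of_tables hρ hb0)
  have hr0 : ρ (wordVal gen [nat_lit 4]) ⟨0, hn⟩ = ⟨1, by norm_num⟩ := Fin.ext ((rep_word hρ hLT (fun a ha => ((prL0 _ (by decide +kernel)).1 a ha)) ⟨0, hn⟩).trans prW0)
  have hk0 := and_of_bits (f := chkOrbPos Cfsg.Agent.Lib.ToddCox.M11T.tab PL0 0 0 66 66 (fun q => prR (Nat.add 0 q))) (g := fun k => Nat.beq (orbPt (prR (Nat.add 0 k))) k) 66 11 1 (by norm_num) (by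
      intro j hj
      interval_cases j
      · exact prc0_0
      )
  have ht0 : ∀ C : Subgroup (PresentedGroup Cfsg.Agent.Lib.ToddCox.M11T.rels), subG Cfsg.Agent.Lib.ToddCox.M11T.rels Cfsg.Agent.Lib.ToddCox.M11T.Sl ≤ C → wordVal gen [nat_lit 4] ∈ C → C = ⊤ := by
    intro C hC hr
    refine top_of_chk ρ gen hn (L := PL0) (rec := fun q => prR (Nat.add 0 q)) (fun w hw i => rep_word hρ hLT (prL0 w hw).1 i) (fun j hj => (hk0 j hj).1) (fun j hj => Nat.eq_of_beq_eq_true (hk0 j hj).2) ?_ (fun g hg => hC (hstab g hg))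
    intro w hw
    rcases (prL0 w hw).2 with e | ⟨s, hs, e⟩
    · rw [e]
      exact hr
    · apply hC
      rw [← e, ← mk_eq_word_gen Cfsg.Agent.Lib.ToddCox.M11T.letters]
      exact subG_mem hs
  obtain ⟨_, hb1⟩ := block_facts (d := 7) Cfsg.Agent.Lib.ToddCox.M11T.t6 (by norm_num) Cfsg.Agent.Lib.ToddCox.M11T.bk2
  have hc1 := conn_rep ρ (lo := 31) (s := 20) (by norm_num) (conn_of_tables hρ hb1)
  have hr1 : ρ (wordVal gen [nat_lit 4, nat_lit 0, nat_lit 4]) ⟨0, hn⟩ = ⟨31, by norm_num⟩ := Fin.ext ((rep_word hρ hLT (fun a ha => ((prL1 _ (by decide +kernel)).1 a ha)) ⟨0, hn⟩).trans prW1)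
  have hk1 := and_of_bits (f := chkOrbPos Cfsg.Agent.Lib.ToddCox.M11T.tab PL1 0 0 66 66 (fun q => prR (Nat.add 66 q))) (g := fun k => Nat.beq (orbPt (prR (Nat.add 66 k))) k) 66 11 1 (by norm_num) (by
      intro j hj
      interval_cases j
      · exact prc1_0
      )
  have ht1 : ∀ C : Subgroup (PresentedGroup Cfsg.Agent.Lib.ToddCox.M11T.rels), subG Cfsg.Agent.Lib.ToddCox.M11T.rels Cfsg.Agent.Lib.ToddCox.M11T.Sl ≤ C → wordVal gen [nat_lit 4, nat_lit 0, nat_lit 4] ∈ C → C = ⊤ := by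
    intro C hC hr
    refine top_of_chk ρ gen hn (L := PL1) (rec := fun q => prR (Nat.add 66 q)) (fun w hw i => rep_word hρ hLT (prL1 w hw).1 i) (fun j hj => (hk1 j hj).1) (fun j hj => Nat.eq_of_beq_eq_true (hk1 j hj).2) ?_ (fun g hg => hC (hstab g hg))
    intro w hw
    rcases (prL1 w hw).2 with e | ⟨s, hs, e⟩
    · rw [e]
      exact hr
    · apply hC
      rw [← e, ← mk_eq_word_gen Cfsg.Agent.Lib.ToddCox.M11T.letters]
      exact subG_mem hs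
  obtain ⟨_, hb2⟩ := block_facts (d := 7) Cfsg.Agent.Lib.ToddCox.M11T.t6 (by norm_num) Cfsg.Agent.Lib.ToddCox.M11T.bk3
  have hc2 := conn_rep ρ (lo := 51) (s := 15) (by norm_num) (conn_of_tables hρ hb2)
  have hr2 : ρ (wordVal gen [nat_lit 4, nat_lit 0, nat_lit 3, nat_lit 4]) ⟨0, hn⟩ = ⟨51, by norm_num⟩ := Fin.ext ((rep_word hρ hLT (fun a ha => ((prL2 _ (by decide +kernel)).1 a ha)) ⟨0, hn⟩).trans prW2)
  have hk2 := and_of_bits (f := chkOrbPos Cfsg.Agent.Lib.ToddCox.M11T.tab PL2 0 0 66 66 (fun q => prR (Nat.add 132 q))) (g := fun k => Nat.beq (orbPt (prR (Nat.add 132 k))) k) 66 11 1 (by norm_num) (by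
      intro j hj
      interval_cases j
      · exact prc2_0
      )
  have ht2 : ∀ C : Subgroup (PresentedGroup Cfsg.Agent.Lib.ToddCox.M11T.rels), subG Cfsg.Agent.Lib.ToddCox.M11T.rels Cfsg.Agent.Lib.ToddCox.M11T.Sl ≤ C → wordVal gen [nat_lit 4, nat_lit 0, nat_lit 3, nat_lit 4] ∈ C → C = ⊤ := by
    intro C hC hr
    refine top_of_chk ρ gen hn (L := PL2) (rec := fun q => prR (Nat.add 132 q)) (fun w hw i => rep_word hρ hLT (prL2 w hw).1 i) (fun j hj => (hk2 j hj).1) (fun j hj => Nat.eq_of_beq_eq_true (hk2 j hj).2) ?_ (fun g hg => hC (hstab g hg))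
    intro w hw
    rcases (prL2 w hw).2 with e | ⟨s, hs, e⟩
    · rw [e]
      exact hr
    · apply hC
      rw [← e, ← mk_eq_word_gen Cfsg.Agent.Lib.ToddCox.M11T.letters]
      exact subG_mem hs
  have hmax : ∀ C : Subgroup (PresentedGroup Cfsg.Agent.Lib.ToddCox.M11T.rels), subG Cfsg.Agent.Lib.ToddCox.M11T.rels Cfsg.Agent.Lib.ToddCox.M11T.Sl ≤ C → C = subG Cfsg.Agent.Lib.ToddCox.M11T.rels Cfsg.Agent.Lib.ToddCox.M11T.Sl ∨ C = ⊤ := by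
    intro C hC
    refine max_of_cover ρ hn hfix htrans hidx ?_ hC
    intro i hi0
    by_cases hq0 : (i : ℕ) < 31
    · obtain ⟨g, hg, e⟩ := hc0 i (by omega) (by omega)
      exact ⟨_, ht0, g, hg, by rw [map_mul, Equiv.Perm.mul_apply, hr0]; exact e⟩
    by_cases hq1 : (i : ℕ) < 51
    · obtain ⟨g, hg, e⟩ := hc1 i (by omega) (by omega)
      exact ⟨_, ht1, g, hg, by rw [map_mul, Equiv.Perm.mul_apply, hr1]; exact e⟩
    obtain ⟨g, hg, e⟩ := hc2 i (by omega) (by have := i.2; omega)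
    exact ⟨_, ht2, g, hg, by rw [map_mul, Equiv.Perm.mul_apply, hr2]; exact e⟩
  have hxp : x ^ 11 = 1 := by
    rw [← wordVal_powW, ← xpow_eq]
    exact word_one_of hρ hinj hcard xpowL xpowB
  exact ⟨simple_of_max ρ hinj hn (subG Cfsg.Agent.Lib.ToddCox.M11T.rels Cfsg.Agent.Lib.ToddCox.M11T.Sl) hfix htrans hmax x 11 1 (by norm_num) hxp (by norm_num) (by rw [hcard]; norm_num) hcl, hcard⟩

end Cfsg.Agent.Lib.ToddCox.M11O
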